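import Cfsg.Agent.H457.RC.BoxD4m
import Cfsg.Agent.H170.RC.Four
import Cfsg.Agent.H520.RC.BoxB

/-!
# S3510, row F even, box D4m, literal form of the stub (helper457)
-/

set_option autoImplicit false
open Cfsg

namespace Cfsg.Agent.H457.RC

open QuadraticMap MulAction
open Cfsg.Agent.LieClassical.OrthCore Cfsg.Agent.LieClassical.OrthTrans
open Cfsg.Agent.LieClassical.OrthSimple Cfsg.Agent.ClassicalGeometry.OrthSemi
open Cfsg.Agent.ClassicalGeometry.OrthAut1 Cfsg.Agent.H106.RC Cfsg.Agent.H93.RC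

theorem m4_of {K V : Type} [Field K] [Finite K] [AddCommGroup V] [Module K V] {R : QuadraticForm K V}
    (hR : Nondeg R) (h4 : Module.finrank K V = 4)
    (hm : ∀ U : Submodule K V, (∀ v ∈ U, R v = 0) → Module.finrank K U ≤ 1) : M4 R :=
  let h := Cfsg.Agent.H170.RC.Minus4.of_le_one hR h4 hm
  ⟨h.commutator_E, h.commutator_eq_E.le, h.scal, h.exists_K⟩

/-- **BOX D4m** (`n = 8`, minus type over `L = F[κ]`). -/
theorem box_D4m {F V : Type} [Field F] [Finite F] [AddCommGroup V] [Module F V] [FiniteDimensional F V]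
    {Q : QuadraticForm F V} {G Ω : Type} [Group G] [Finite G] [MulAction G Ω] [Nonempty Ω]
    {N : Subgroup G} {ρ : ↥(E Q) →* G}
    (hG : Good Q) (hE : Env G Ω N) (hρ : Rep Q N ρ) (hIH : IH (Nat.card (P Q)))
    {p : ℕ} [CharP F p] {ι : Type} [Finite ι] {x : ι → G} {M : ι → Gam Q} {r : ι → ℕ}
    (hl : ∀ i, Lf ρ (x i) (M i)) (hlin : ∀ i, IsLin (M i)) (hx : PF x r) (hcov : Cov Ω x)
    (h8 : Module.finrank F V = 8) (κ : V →ₗ[F] V) (s t : F)
    (hκ : ∀ v, κ (κ v) = s • κ v - t • v) (hirr : ∀ a : F, a * a - s * a + t ≠ 0)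
    (hadj : ∀ v w, polar Q (κ v) w = polar Q v (κ w))
    (_ : (2 : F) = 0 → ∀ v, polar Q v (κ v) = 0)
    (hcom : ∀ i v, (M i).1 (κ v) = κ ((M i).1 v))
    (hminus : ∀ U : Submodule F V, (∀ v ∈ U, Q v = 0) → (∀ v ∈ U, κ v ∈ U) →
      Module.finrank F U ≠ 4) : False :=
  box_D4m_of (p := p) (fun _ _ _ _ _ _ hR h4 hm => m4_of hR h4 hm) hG hE hρ hIH
    (Cfsg.Agent.H520.RC.lr_of hG hE hρ) hl hlin hx hcov h8 κ s t hκ hirr hadj hcom hminus

end Cfsg.Agent.H457.RC
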